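import Cfsg.Agent.Lib.Helper5.SU3.Model
import Cfsg.Agent.Lib.Helper5.SUAsch.Defs2
import Cfsg.Agent.Lib.Helper5.SUAsch.Bridge
import Cfsg.Agent.Lib.Helper5.SU3.Mono

set_option autoImplicit false

namespace Cfsg.Agent.Lib.Helper71.SU3

open Cfsg Cfsg.Geo Matrix Cfsg.Agent.Lib.Helper5.SUAsch Cfsg.Agent.Lib.Helper5.SU3
open scoped MatrixGroups

variable {F : Type*} [Field F] [Fintype F]

/-- S5 in hypothesis form: from the conclusions of S2, S3b, S4, F4 -/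
theorem so3_q5_not_max_of (F₀ : Subfield F) (P : GL (Fin 3) F)
    (hS2 : ∃ T ∈ GU 3 F 5, ∀ g : GL (Fin 3) F,
      g ∈ subfieldSubgroup F₀ P ↔ T⁻¹ * g * T ∈ subfieldSubgroup F₀ 1)
    (hS3b : subfieldSubgroup F₀ (1 : GL (Fin 3) F) ⊓ SUg 3 F 5 ≤ M0 F)
    (hS4 : ∃ e ∈ SUg 3 F 5, e ∈ M0 F ∧ e ∉ subfieldSubgroup F₀ (1 : GL (Fin 3) F))
    (hF4 : ∃ s ∈ SUg 3 F 5, s ∉ M0 F) :
    ¬ IsMaximalIn (SUg 3 F 5) (subfieldSubgroup F₀ P ⊓ SUg 3 F 5) := by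
  rintro ⟨-, hmax⟩
  obtain ⟨B, hBU, hB⟩ := hS2
  have hSLn : (specialLinear (Fin 3) F).Normal := by
    unfold specialLinear; infer_instance
  let M : Subgroup (GL (Fin 3) F) :=
    (M0 F).comap (MulAut.conj B⁻¹).toMonoidHom ⊓ SUg 3 F 5
  have hmem : ∀ g, g ∈ M ↔ (B⁻¹ * g * B ∈ M0 F ∧ g ∈ SUg 3 F 5) := by
    intro g
    simp [M, Subgroup.mem_inf, Subgroup.mem_comap, MulAut.conj_apply]
  have hconj : ∀ g, g ∈ SUg 3 F 5 → B⁻¹ * g * B ∈ SUg 3 F 5 := by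
    intro g hg
    refine ⟨(GU 3 F 5).mul_mem ((GU 3 F 5).mul_mem ((GU 3 F 5).inv_mem hBU) hg.1) hBU, ?_⟩
    have := hSLn.conj_mem g hg.2 B⁻¹
    simpa using this
  have hconj' : ∀ g, g ∈ SUg 3 F 5 → B * g * B⁻¹ ∈ SUg 3 F 5 := fun g hg =>
    ⟨(GU 3 F 5).mul_mem ((GU 3 F 5).mul_mem hBU hg.1) ((GU 3 F 5).inv_mem hBU),
      hSLn.conj_mem g hg.2 B⟩
  have hle : subfieldSubgroup F₀ P ⊓ SUg 3 F 5 ≤ M := by
    intro g hg
    obtain ⟨hg1, hg2⟩ := Subgroup.mem_inf.mp hg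
    rw [hmem]
    exact ⟨hS3b (Subgroup.mem_inf.2 ⟨(hB g).1 hg1, hconj g hg2⟩), hg2⟩
  rcases hmax M hle inf_le_right with hM | hM
  · obtain ⟨e, heSU, heM, hne⟩ := hS4
    have h1 : B * e * B⁻¹ ∈ M := by
      rw [hmem]
      refine ⟨?_, hconj' e heSU⟩
      have : B⁻¹ * (B * e * B⁻¹) * B = e := by group
      rw [this]; exact heM
    rw [hM] at h1
    have h2 := (hB _).1 (Subgroup.mem_inf.mp h1).1
    have : B⁻¹ * (B * e * B⁻¹) * B = e := by group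
    rw [this] at h2
    exact hne h2
  · obtain ⟨s, hsSU, hs⟩ := hF4
    have h1 : B * s * B⁻¹ ∈ M := by
      rw [hM]; exact hconj' s hsSU
    rw [hmem] at h1
    have : B⁻¹ * (B * s * B⁻¹) * B = s := by group
    rw [this] at h1
    exact hs h1.1

end Cfsg.Agent.Lib.Helper71.SU3
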